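import Cfsg.Agent.FI.DiscA
import Cfsg.Agent.S0444

/-! Classes of 3-transpositions with disconnected commuting graph (helper16): the triality examples. -/

set_option autoImplicit false

namespace Cfsg.Agent.FI.Disc

open Cfsg.Agent.Fischer Cfsg.Agent.Sig Subgroup

variable {G : Type*} [Group G] [Finite G] {D : Set G} {L : Subgroup G} [hn : L.Normal]

/-- `L⟨d⟩` with the class of `d` is a primitive Fischer group with commutator subgroup `L`. -/
theorem sub (hD : IsThreeTranspositionClass D) (hL : IsQuasisimple L) (hC : centralizer (L : Set G) = ⊥)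
    {d : G} (hd : d ∈ D) (hdL : d ∉ L) :
    ∃ (H : Subgroup G) (Δ : Set H), PR Δ ∧ commutator H ≠ ⊤ ∧ Nonempty (commutator H ≃* L) := by
  have hG := TC.group hD
  have d2 := TT.sq hD.1 hd
  let H := L ⊔ zpowers d
  have le : L ≤ H := le_sup_left
  let d' : H := ⟨d, mem_sup_right (mem_zpowers d)⟩
  have sb : ∀ x ∈ conjugatesOf d', (x : G) ∈ D := fun x hx => by
    obtain ⟨c, rfl⟩ := isConj_iff.1 hx
    exact TG.conj hG c hd
  have hΔ : IsThreeTranspositionClass (conjugatesOf d') := by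
    refine ⟨⟨fun x hx => (orderOf_coe x).symm.trans (hD.1.1 _ (sb x hx)), fun x hx y hy =>
      (hD.1.2 _ (sb x hx) _ (sb y hy)).imp (fun l => Subtype.ext l) fun l => Subtype.ext l⟩,
      ⟨d', mem_conjugatesOf_self, rfl⟩, ?_⟩
    have m : ∀ x ∈ conjugatesOf d', (x : G) ∈ (closure (conjugatesOf d')).map H.subtype := fun x hx =>
      ⟨x, subset_closure hx, rfl⟩
    have k : H ≤ (closure (conjugatesOf d')).map H.subtype := by
      refine sup_le ?_ (zpowers_le_of_mem (m _ mem_conjugatesOf_self))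
      refine (TC.commutator_eq hD hL hd).ge.trans (commutator_zpowers_le d2 fun x hx =>
        mul_mem (m _ mem_conjugatesOf_self) (m (⟨x, le hx⟩ * d' * (⟨x, le hx⟩)⁻¹) (isConj_iff.2 ⟨_, rfl⟩)))
    refine eq_top_iff.2 fun x _ => ?_
    obtain ⟨y, hy, e⟩ := k x.2
    exact (Subtype.ext e : y = x) ▸ hy
  have e := subgroupOfEquivOfLe le
  have hL' : IsQuasisimple (L.subgroupOf H) := qs_of_mulEquiv hL e.symm
  have hi : (L.subgroupOf H).index ≤ 2 := by
    refine index_le_two_of_mul_mem (TC.group hΔ) mem_conjugatesOf_self fun a ha => ?_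
    obtain ⟨⟨c, hc⟩, rfl⟩ := isConj_iff.1 ha
    have hc' := hc
    rw [← SetLike.mem_coe, normal_mul] at hc'
    obtain ⟨l, hl, y, hy, rfl⟩ := hc'
    have : y * d * y⁻¹ = d := by rcases mem_zpowers_invol d2 hy with rfl | rfl <;> simp
    have k : d * (l * y * d * (l * y)⁻¹) = d * l * d⁻¹ * l⁻¹ := by
      rw [inv_eq_of_mul_eq_one_left d2]
      calc _ = d * l * (y * d * y⁻¹) * l⁻¹ := by group
        _ = _ := by rw [this]
    change d * (l * y * d * (l * y)⁻¹) ∈ L
    rw [k]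
    exact mul_mem (hn.conj_mem _ hl d) (inv_mem hl)
  have hw := TC.width_two_of_qs hΔ hL'
  have ce := commutator_eq_of_qs hL' hi
  refine ⟨H, _, ⟨TC.group hΔ, TC.primitive_of_index hΔ (by
    obtain ⟨a, ha, b, hb, k, -⟩ := hw; exact ⟨a, ha, b, hb, k⟩) hL' hi, hw, eq_bot_iff.2 fun x hx => ?_⟩,
    fun t => hdL ?_, ⟨(MulEquiv.subgroupCongr ce).trans e⟩⟩
  · have : (x : G) ∈ centralizer (L : Set G) := fun y hy => congrArg Subtype.val (mem_center_iff.1 hx ⟨y, le hy⟩)
    rw [hC, mem_bot] at this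
    exact mem_bot.2 (Subtype.ext this)
  · have : d' ∈ L.subgroupOf H := by rw [← ce, t]; trivial
    exact this

/-- The quotient by the component has order `2·3^k`-dividing and contains `S₃`. -/
theorem quot (hD : IsThreeTranspositionClass D) (hL : IsQuasisimple L) (hi : 2 < L.index) :
    (∃ k, L.index ∣ 2 * 3 ^ k) ∧ (∃ K : Subgroup (G ⧸ L), Nonempty (K ≃* Equiv.Perm (Fin 3))) ∧ ∃ d ∈ D, d ∉ L := by
  haveI : Fact (Nat.Prime 3) := ⟨by norm_num⟩
  have hG := TC.group hD
  let π := QuotientGroup.mk' L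
  have nm : ∀ a ∈ D, a ∉ L := fun a ha l => by
    have : L = ⊤ := by
      rw [eq_top_iff, ← hD.2.2, closure_le]
      intro b hb
      obtain ⟨g, rfl⟩ := TC.exists_conj hD ha hb
      exact hn.conj_mem _ l g
    rw [this, index_top] at hi; omega
  have sq : ∀ a ∈ D, π a * π a = 1 := fun a ha => by rw [← map_mul, TT.sq hD.1 ha, map_one]
  have hQ : IsThreeTranspositionGroup (π '' D) := by
    refine ⟨⟨?_, ?_⟩, ?_, ?_⟩
    · rintro _ ⟨a, ha, rfl⟩
      exact orderOf_of_sq (sq a ha) fun l => nm a ha ((QuotientGroup.eq_one_iff a).1 l)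
    · rintro _ ⟨a, ha, rfl⟩ _ ⟨b, hb, rfl⟩
      exact (hD.1.2 a ha b hb).imp (fun l => by rw [← map_mul, ← map_pow, l, map_one])
        fun l => by rw [← map_mul, ← map_pow, l, map_one]
    · rintro g _ ⟨a, ha, rfl⟩
      obtain ⟨g, rfl⟩ := QuotientGroup.mk'_surjective L g
      exact ⟨_, TG.conj hG g ha, by simp [π]⟩
    · rw [← MonoidHom.map_closure, hD.2.2, map_top_of_surjective _ (QuotientGroup.mk'_surjective L)]
  have w1 : ∀ a ∈ π '' D, ∀ b ∈ π '' D, Commute a b → a = b := by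
    rintro _ ⟨a, ha, rfl⟩ _ ⟨b, hb, rfl⟩ c
    have : (a * b) ^ 2 ∈ L := (QuotientGroup.eq_one_iff _).1 (by
      change π _ = 1
      rw [map_pow, map_mul, c.mul_pow, pow_two, pow_two, sq a ha, sq b hb, one_mul])
    have k : π (a * b) = 1 := (QuotientGroup.eq_one_iff _).2 (TC.mul_mem_of_commutator_mem hD hL ha hb this)
    rw [map_mul] at k
    exact mul_right_cancel (k.trans (sq b hb).symm)
  obtain ⟨d, hd⟩ := TC.nonempty hD
  refine ⟨?_, ?_, d, hd, nm d hd⟩
  · have s := TG.sup_pCore_three hQ w1 ⟨d, hd, rfl⟩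
    obtain ⟨k, hk⟩ := (Solv.isPGroup_pCore 3 (G ⧸ L)).exists_card_eq
    refine ⟨k, ?_⟩
    have i : (pCore 3 (G ⧸ L)).index ∣ 2 := by
      have := relIndex_sup_right (zpowers (π d)) (pCore 3 (G ⧸ L))
      rw [s, relIndex_top_right] at this
      rw [this, ← hQ.1.1 _ ⟨d, hd, rfl⟩, ← Nat.card_zpowers]
      exact relIndex_dvd_card _ _
    rw [index, ← (pCore 3 (G ⧸ L)).index_mul_card, hk]
    exact Nat.mul_dvd_mul_right i _
  · by_cases c : ∀ e ∈ D, Commute (π d) (π e)
    · have := index_le_two_of_mul_mem hG hd (L := L) fun a ha => (QuotientGroup.eq_one_iff _).1 (by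
        change π _ = 1
        rw [map_mul, ← w1 _ ⟨d, hd, rfl⟩ _ ⟨a, ha, rfl⟩ (c a ha), sq d hd])
      omega
    · push Not at c
      obtain ⟨e, he, c⟩ := c
      exact ⟨_, S0444.result hQ.1 ⟨d, hd, rfl⟩ ⟨e, he, rfl⟩ c⟩

theorem index_dvd (hC : centralizer (L : Set G) = ⊥) {c : ℕ} (h : OI L c) : L.index ∣ c := by
  have i : Function.Injective (MulAut.conjNormal : G →* MulAut L) := (injective_iff_map_eq_one _).2 fun g hg => by
    rw [← mem_bot, ← hC]
    exact fun x hx => (mul_inv_eq_iff_eq_mul.1 (congrArg Subtype.val (DFunLike.congr_fun hg (⟨x, hx⟩ : L)))).symm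
  have := card_dvd_of_injective _ i
  rw [h, ← L.index_mul_card] at this
  exact Nat.dvd_of_mul_dvd_mul_right Nat.card_pos this

omit hn in
theorem main (h24 : Nat.card (Out Spor.Fi24') = 2) (hD : IsThreeTranspositionClass D) (hZ : center G = ⊥)
    (h2 : pCore 2 G = ⊥) (h3 : pCore 3 G = ⊥) (hdisc : ¬ (commutingGraph D).Connected) (F : Subgroup G) [F.Normal]
    (hF : F = generalizedFittingSubgroup G) : Nonempty (G ⧸ F ≃* Equiv.Perm (Fin 3)) ∧
      (Nonempty (F ≃* Omega (ZMod 2) (quadFormPlus 4 (ZMod 2))) ∨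
        Nonempty (F ≃* POmega (ZMod 3) (quadFormPlus 4 (ZMod 3)))) := by
  have hG := TC.group hD
  have hD2 : ∃ a ∈ D, ∃ b ∈ D, a ≠ b := by
    by_contra k
    push Not at k
    exact hdisc (connected_of_induction (TC.nonempty hD) fun X x hx hX _ y hy => k x hx y hy ▸ hX)
  obtain ⟨L, h1, hL, -, h4⟩ := TC.exists_qs hD hD2 (h2 ▸ bot_le) (h3 ▸ bot_le)
  rw [hZ, sup_bot_eq, ← hF] at h4
  subst h4
  have z : center F = ⊥ := eq_bot_iff.2 fun x hx => by
    have : (center F).map F.subtype ≤ fittingSubgroup G := by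
      have : IsMulCommutative ((center F).map F.subtype) := inferInstance
      exact Solv.le_fitting_of_isMulCommutative
    rw [TG.fitting_eq_center hG (h2 ▸ bot_le) (h3 ▸ bot_le), hZ] at this
    simpa using this ⟨x, hx, rfl⟩
  have hC : centralizer (F : Set G) = ⊥ := eq_bot_iff.2 fun x hx => by
    have m : x ∈ F := by
      have := centralizer_fstar_le (G := G)
      rw [← hF] at this
      exact this hx
    have : (⟨x, m⟩ : F) ∈ center F := mem_center_iff.2 fun y => Subtype.ext (hx y y.2)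
    rw [z, mem_bot] at this
    exact mem_bot.2 (congrArg Subtype.val this)
  have hi : 2 < F.index := lt_of_not_ge fun i =>
    hdisc (prim_connected hG (TC.primitive_of_index hD hD2 hL i) (TC.width_two_of_qs hD hL))
  obtain ⟨⟨k, hk⟩, ⟨K, ⟨eK⟩⟩, d, hd, dF⟩ := quot hD hL hi
  obtain ⟨H, Δ, hP, ht, ⟨e⟩⟩ := sub hD hL hC hd dF
  have cK : Nat.card K = 6 := by rw [Nat.card_congr eK.toEquiv, Nat.card_perm]; simp [Nat.factorial]
  have d6 : 6 ∣ F.index := cK ▸ card_subgroup_dvd_card K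
  haveI := qs_simple_of_center_eq_bot hL z
  rcases core hP e.isSimpleGroup (qs_not_isMulCommutative (qs_of_mulEquiv hL e.symm)) ht h24 with
    ⟨c, c3, o⟩ | ⟨⟨c, c24, o⟩, r⟩
  · exact absurd ((Dvd.dvd.trans (by decide) d6).trans (index_dvd hC (o.congr e.symm))) c3
  · have i24 := (index_dvd hC (o.congr e.symm)).trans c24
    have n4 : ¬ 4 ∣ F.index := fun l => by
      have h : 2 * 2 ∣ 2 * 3 ^ k := l.trans hk
      have := (Nat.Prime.dvd_of_dvd_pow Nat.prime_two (Nat.dvd_of_mul_dvd_mul_left two_pos h))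
      omega
    have i6 : F.index = 6 := by
      have := Nat.le_of_dvd (by norm_num) i24
      generalize F.index = x at *
      interval_cases x <;> simp_all
    have kt : K = ⊤ := eq_top_of_card_eq K (cK.trans i6.symm)
    subst kt
    exact ⟨⟨topEquiv.symm.trans eK⟩, r.imp (fun ⟨f⟩ => ⟨e.symm.trans f⟩) fun ⟨f⟩ => ⟨e.symm.trans f⟩⟩

end Cfsg.Agent.FI.Disc
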