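import Cfsg.Agent.FI.Rows
import Cfsg.Agent.Classical.SLCard
import Cfsg.Agent.S0247
import Cfsg.Agent.S0254
import Cfsg.Agent.S0270
import Cfsg.Agent.S0283
import Cfsg.Agent.S0301
import Cfsg.Agent.S0302
import Cfsg.Agent.S0303
import Cfsg.Agent.S0813
import Cfsg.Agent.S0814
import Cfsg.Agent.S0815
import Cfsg.Agent.S0816
import Cfsg.Agent.S0817
import Cfsg.Agent.S0818
import Cfsg.Agent.S2119

/-! Orders of the automorphism groups of the simple commutator subgroups of Fischer's groups (helper16). -/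

set_option autoImplicit false

namespace Cfsg.Agent.FI.Disc

open Cfsg.Agent.Fischer Cfsg.Agent.Geom Subgroup

/-- `|Aut L| = c |L|`. -/
def OI (L : Type*) [Group L] (c : ℕ) : Prop := Nat.card (MulAut L) = c * Nat.card L

/-- `|Aut L : L|` is prime to 3. -/
def N3 (L : Type*) [Group L] : Prop := ∃ c, ¬ 3 ∣ c ∧ OI L c

variable {L L' : Type*} [Group L] [Group L'] {c : ℕ}

theorem OI.congr (h : OI L' c) (e : L ≃* L') : OI L c := by
  unfold OI at *
  rw [Nat.card_congr (MulAut.congr e).toEquiv, Nat.card_congr e.toEquiv, h]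

theorem N3.congr (h : N3 L') (e : L ≃* L') : N3 L := h.imp fun _ h => ⟨h.1, h.2.congr e⟩

theorem oi_psl {F : Type*} [Field F] [Fintype F] (p f : ℕ) [Fact p.Prime] (hf : 1 ≤ f) (hF : Fintype.card F = p ^ f)
    (n : ℕ) (hn : 2 ≤ n) (h2 : n = 2 → 4 ≤ p ^ f) :
    OI (Matrix.ProjectiveSpecialLinearGroup (Fin n) F) ((if n = 2 then 1 else 2) * f * Nat.gcd n (p ^ f - 1)) := by
  haveI : Nonempty (Fin n) := ⟨⟨0, by omega⟩⟩
  unfold OI
  rw [S0813.result p f hf hF n hn h2, Classical.card_PGL_eq_card_SL, ← Classical.card_PSL_mul, Fintype.card_fin,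
    Nat.card_eq_fintype_card (α := F), hF]
  ring

abbrev F9 := GaloisField 3 2

noncomputable instance fintypeF9disc : Fintype F9 := Fintype.ofFinite _

theorem card_F9 : Fintype.card F9 = 3 ^ 2 := by
  rw [← Nat.card_eq_fintype_card]; exact GaloisField.card 3 2 (by norm_num)

theorem n3_alt {n : ℕ} (hn : 5 ≤ n) : N3 (alternatingGroup (Fin n)) := by
  by_cases h6 : n = 6
  · subst h6
    obtain ⟨e⟩ := S0254.result (F := F9) card_F9
    exact N3.congr ⟨_, by decide, oi_psl 3 2 (by norm_num) card_F9 2 le_rfl (by norm_num)⟩ e.symm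
  · refine ⟨2, by decide, ?_⟩
    haveI : Nontrivial (Fin n) := Fin.nontrivial_iff_two_le.2 (by omega)
    unfold OI
    rw [← Nat.card_eq_of_bijective _ (S2119.result n (by omega) h6), ← (alternatingGroup (Fin n)).index_mul_card,
      alternatingGroup.index_eq_two]

theorem n3_perm {n : ℕ} (hn : 5 ≤ n) : N3 (commutator (Equiv.Perm (Fin n))) :=
  (n3_alt hn).congr (MulEquiv.subgroupCongr (alternatingGroup.commutator_perm_eq (by simpa)))

theorem n3_plus {p : ℕ} [Fact p.Prime] (hp : p = 2 ∨ p = 3) {m : ℕ} (hm : 3 ≤ m) (h4 : m ≠ 4) :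
    N3 (POmega (ZMod p) (quadFormPlus m (ZMod p))) := by
  have c : Fintype.card (ZMod p) = p ^ 1 := by simp
  by_cases h3 : m = 3
  · subst h3
    obtain ⟨e⟩ := S0302.result (F := ZMod p)
    exact N3.congr ⟨_, by rcases hp with rfl | rfl <;> decide, oi_psl p 1 le_rfl c 4 (by norm_num) (by norm_num)⟩ e
  · refine ⟨_, ?_, S0817.result p 1 le_rfl c m (by omega)⟩
    rw [if_neg h4]; split_ifs <;> decide

theorem oi_plus4 {p : ℕ} [Fact p.Prime] (hp : p = 2 ∨ p = 3) :
    ∃ c, c ∣ 24 ∧ OI (POmega (ZMod p) (quadFormPlus 4 (ZMod p))) c :=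
  ⟨_, by rcases hp with rfl | rfl <;> decide, S0817.result p 1 le_rfl (by simp) 4 le_rfl⟩

theorem n3_minus {p : ℕ} [Fact p.Prime] (hp : p = 2 ∨ p = 3) {m : ℕ} (hm : 2 ≤ m) (a b : ZMod p)
    (hab : ∀ z₁ z₂ : ZMod p, z₁ ^ 2 + a * z₁ * z₂ + b * z₂ ^ 2 = 0 → z₁ = 0 ∧ z₂ = 0) :
    N3 (POmega (ZMod p) (quadFormMinus m (ZMod p) a b)) := by
  have c : Fintype.card (ZMod p) = p ^ 1 := by simp
  by_cases h3 : m = 2
  · subst h3
    rcases hp with rfl | rfl
    · obtain ⟨e⟩ := S0303.result (F := ZMod 2) (K := F4) (q := 2) (by simp) factF4.out a b hab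
      exact N3.congr ⟨_, by decide, S0815.result 2 1 le_rfl (q := 2) rfl factF4.out 4 (by norm_num) (by norm_num)⟩ e
    · obtain ⟨e⟩ := S0303.result (F := ZMod 3) (K := F9) (q := 3) (by simp) card_F9 a b hab
      exact N3.congr ⟨_, by decide, S0815.result 3 1 le_rfl (q := 3) rfl card_F9 4 (by norm_num) (by norm_num)⟩ e
  · refine ⟨_, ?_, S0818.result p 1 le_rfl c (m + 1) (by omega) a b hab⟩
    split_ifs <;> decide

theorem n3_odd {m : ℕ} (hm : 2 ≤ m) : N3 (POmega (ZMod 3) (quadFormOdd m (ZMod 3))) := by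
  have c : Fintype.card (ZMod 3) = 3 ^ 1 := by simp
  by_cases h3 : m = 2
  · subst h3
    obtain ⟨e⟩ := S0301.result (F := ZMod 3) (by rw [c]; decide)
    exact N3.congr ⟨_, by decide, S0814.result 3 1 le_rfl c 2 le_rfl (by norm_num)⟩ e
  · exact ⟨_, by decide, S0816.result 3 1 le_rfl c (by decide) m (by omega)⟩

set_option synthInstance.maxSize 2000 in
theorem gl2_inv : ∀ a b : Matrix (Fin 1 ⊕ Fin 1) (Fin 1 ⊕ Fin 1) (ZMod 2), a * a = 1 → b * b = 1 → a ≠ 1 → b ≠ 1 →
    a * b = b * a → a = b := by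
  have : ∀ a b : (Fin 1 ⊕ Fin 1) → (Fin 1 ⊕ Fin 1) → ZMod 2, Matrix.of a * Matrix.of a = 1 →
      Matrix.of b * Matrix.of b = 1 → Matrix.of a ≠ 1 → Matrix.of b ≠ 1 →
      Matrix.of a * Matrix.of b = Matrix.of b * Matrix.of a → a = b := by
    decide +kernel
  exact this

/-- A centreless group is its own central quotient. -/
noncomputable def cq (z : center L = ⊥) : L ≃* L ⧸ center L :=
  (QuotientGroup.quotientBot.symm).trans (QuotientGroup.quotientMulEquivOfEq z.symm)

theorem center_of_simple [IsSimpleGroup L] (h : ¬ IsMulCommutative L) : center L = ⊥ :=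
  (Normal.eq_bot_or_eq_top inferInstance).resolve_right fun e =>
    h ⟨⟨fun a b => mem_center_iff.1 (e ▸ mem_top b : b ∈ center L) a⟩⟩

variable {H : Type*} [Group H] [Finite H] {D : Set H}

theorem core (h : PR D) (hs : IsSimpleGroup (commutator H)) (hna : ¬ IsMulCommutative (commutator H))
    (hi : commutator H ≠ ⊤) (h24 : Nat.card (Out Spor.Fi24') = 2) :
    N3 (commutator H) ∨ ((∃ c, c ∣ 24 ∧ OI (commutator H) c) ∧
      (Nonempty (commutator H ≃* Omega (ZMod 2) (quadFormPlus 4 (ZMod 2))) ∨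
        Nonempty (commutator H ≃* POmega (ZMod 3) (quadFormPlus 4 (ZMod 3))))) := by
  have z := center_of_simple hna
  have P : ∀ {K : Type} [Group K], (H ≃* K) → ¬ IsSimpleGroup K := fun e s => by
    haveI := e.isSimpleGroup
    rcases (inferInstance : (commutator H).Normal).eq_bot_or_eq_top with k | k
    · exact hna (k ▸ inferInstance)
    · exact hi k
  have C : ∀ {K : Type} [Group K], (H ≃* K) →
      Nonempty (commutator H ≃* commutator K ⧸ center (commutator K)) := fun e =>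
    (commutator_congr e).map fun e1 => (cq z).trans (quotCenterCongr e1)
  rcases h.list (F := F4) with ⟨k, c⟩ | k | ⟨n, hn, k⟩ | k | ⟨n, Q, lam, hn, k⟩ | ⟨ψ, -⟩ | ⟨ψ, -⟩ | ⟨ψ, -⟩
  · obtain ⟨n, hn, e, -⟩ := h.sym k c
    obtain ⟨e1⟩ := commutator_congr e
    exact .inl ((n3_perm hn).congr e1)
  · obtain ⟨m, e, -⟩ := out_sp h.tg h.z k
    obtain ⟨a, ha, b, hb, ab, cab⟩ := h.hw
    match m, e with
    | 0, e => exact absurd (e.injective (Subtype.ext (Subsingleton.elim _ _))) ab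
    | 1, e =>
      have s : ∀ x ∈ D, (e x).1 * (e x).1 = 1 ∧ (e x).1 ≠ 1 := fun x hx =>
        ⟨congrArg Subtype.val ((map_mul e x x).symm.trans (by rw [TT.sq h.tg.1 hx, map_one])),
          fun l => TT.ne_one h.tg.1 hx (e.injective ((Subtype.ext l).trans (map_one e).symm))⟩
      exact absurd (e.injective (Subtype.ext (gl2_inv _ _ (s a ha).1 (s b hb).1 (s a ha).2 (s b hb).2
        (congrArg Subtype.val (cab.map e).eq)))) ab
    | 2, e =>
      obtain ⟨e0⟩ := S0247.result (F := ZMod 2) (by simp)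
      obtain ⟨e1⟩ := commutator_congr (e.trans e0)
      exact .inl ((n3_perm (by norm_num)).congr e1)
    | m + 3, e =>
      exact absurd (S0270.result (F := ZMod 2) (m + 3) (by omega) (by omega))
        (P ((cq h.z).trans (quotCenterCongr e)))
  · obtain ⟨e, -⟩ := out_u h.tg h.z hn k
    exact absurd (S0283.result factF4.out n (by omega) (by omega)) (P e)
  · rcases out_o2 h.tg h.z k with ⟨m, hm, e, -⟩ | ⟨m, hm, e, -⟩
    · obtain ⟨e1⟩ := C e
      by_cases h4 : m = 4
      · subst h4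
        obtain ⟨c, hc, o⟩ := oi_plus4 (p := 2) (.inl rfl)
        exact .inr ⟨⟨c, hc, o.congr e1⟩, .inl (commutator_congr e)⟩
      · exact .inl ((n3_plus (p := 2) (.inl rfl) hm h4).congr e1)
    · obtain ⟨e1⟩ := C e
      exact .inl ((n3_minus (p := 2) (.inl rfl) hm 1 1 (by decide)).congr e1)
  · obtain ⟨e, -⟩ := out_o3 h.tg h.z hn k
    obtain ⟨e1⟩ := commutator_congr e
    obtain ⟨e2⟩ := o3_commutator k.nd hn one_ne_zero
    rcases Nat.even_or_odd n with ⟨m, rfl⟩ | ⟨m, rfl⟩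
    · obtain ⟨m, rfl⟩ : ∃ m', m = m' + 1 := ⟨m - 1, by omega⟩
      rcases wittIndex_even k.nd (m := m) (by simp; omega) with hw | hw
      · obtain ⟨t, ht⟩ := exists_isIso_plus k.nd (by simp; omega) hw
        obtain ⟨e3⟩ := pOmega_congr ht.isomCongr
        have e4 : commutator H ≃* POmega (ZMod 3) (quadFormPlus (m + 1) (ZMod 3)) :=
          coe_quadPlus (ZMod 3) (m + 1) ▸ e1.trans (e2.trans (quotCenterCongr e3))
        by_cases h4 : m = 3
        · subst h4
          obtain ⟨c, hc, o⟩ := oi_plus4 (p := 3) (.inr rfl)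
          exact .inr ⟨⟨c, hc, o.congr e4⟩, .inr ⟨e4⟩⟩
        · exact .inl ((n3_plus (p := 3) (.inr rfl) (by omega) (by omega)).congr e4)
      · obtain ⟨t, ht⟩ := exists_isIso_minus k.nd (by simp; omega) hw (a := 0) (b := 1) (by decide)
        obtain ⟨e3⟩ := pOmega_congr ht.isomCongr
        have e4 : commutator H ≃* POmega (ZMod 3) (quadFormMinus m (ZMod 3) 0 1) :=
          coe_quadMinus (ZMod 3) m 0 1 ▸ e1.trans (e2.trans (quotCenterCongr e3))
        exact .inl ((n3_minus (p := 3) (.inr rfl) (by omega) 0 1 (by decide)).congr e4)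
    · obtain ⟨c, hc, t, ht⟩ := exists_isIso_odd k.nd (m := m) (by simp)
      obtain ⟨e3⟩ := pOmega_congr ((MulEquiv.subgroupCongr (OG_smul hc).symm).trans ht.isomCongr)
      have e4 : commutator H ≃* POmega (ZMod 3) (quadFormOdd m (ZMod 3)) :=
        coe_quadOdd (ZMod 3) m ▸ e1.trans (e2.trans (quotCenterCongr e3))
      exact .inl ((n3_odd (by omega)).congr e4)
  · exact absurd Spor.Fi22M.simple (P ψ.symm)
  · exact absurd Spor.Fi23M.simple (P ψ.symm)
  · obtain ⟨e1⟩ := commutator_congr ψ.symm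
    refine .inl ⟨2, by decide, ?_⟩
    unfold OI
    rw [ChAut.card_aut_eq z, Nat.card_congr (ChAut.outCongr e1).toEquiv, h24]

end Cfsg.Agent.FI.Disc
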