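import Cfsg.Agent.FI.Main
import Cfsg.Agent.Fischer.Ty

/-! The sporadic alternatives of Fischer's theorem are of type `M(22)`, `M(23)`, `M(24)`. -/

namespace Cfsg.Agent.FI

open Cfsg.Agent.Fischer

theorem Spo.type {G : Type*} [Group G] {D : Set G} (h : Spo D) :
    IsOfTypeM22 G D ∨ IsOfTypeM23 G D ∨ IsOfTypeM24 G D := by
  rcases h with ⟨ψ, e⟩ | ⟨ψ, e⟩ | ⟨ψ, e⟩
  · exact .inl (K22.ty ⟨_, KMap.of_equiv F22.wt ψ e⟩ (center_eq_bot_of_equiv ψ.symm F22.fl.z))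
  · exact .inr (.inl (K23.ty ⟨_, KMap.of_equiv F23.wt ψ e⟩ (center_eq_bot_of_equiv ψ.symm F23.fl.z)))
  · exact .inr (.inr (K24.ty ⟨_, KMap.of_equiv F24.wt ψ e⟩ (center_eq_bot_of_equiv ψ.symm F24.fl.z)))

end Cfsg.Agent.FI
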